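-- Team project OPARM (S5991), package [OM1M] (helper92): an element of Ω⁻ with square -1 for
-- q ≡ 7 (mod 8), k even.  The element is explicit; membership in Ω comes from the sign
-- characters on the level sets (all cycles of length 4, level sets of size ≡ 0 mod 8).
import Cfsg.Agent.Lib.Helper64.OParM.Defs
import Cfsg.Agent.Lib.Helper92.OPar.Om2Minus
import Cfsg.Agent.Lib.Helper14.Forms

set_option autoImplicit false

namespace Cfsg.Agent.Lib.Helper92.OParM

open Cfsg Cfsg.Agent.Lib.Helper64.OParM Cfsg.Agent.Lib.Helper92.OPar Cfsg.Agent.Lib.Helper14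
open Matrix

universe u

section generic

variable {ι : Type} [Fintype ι] [DecidableEq ι] {F : Type u} [Field F] [Fintype F]

/-- An isometry with square `-1` lies in `Ω` as soon as `|{Q = c}| / 4` is even for all
`c ≠ 0`. -/
theorem mem_omega_of_sq_neg_one (h2 : (2 : F) ≠ 0) (Q : QuadraticForm F (ι → F))
    (hQ : (QuadraticMap.polarBilin Q).Nondegenerate) (x : Matrix.GeneralLinearGroup ι F)
    (hx : x ∈ Cfsg.isometryGroup F ⇑Q)
    (hxx : (x : Matrix ι ι F) * (x : Matrix ι ι F) = -1)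
    (hcard : ∀ c : F, c ≠ 0 → Even (Nat.card {v : ι → F // Q v = c} / 4)) :
    x ∈ Cfsg.Geo.omegaGL ⇑Q := by
  obtain ⟨b, hb⟩ := exists_not_isSquare (F := F) h2
  have hb0 : b ≠ 0 := by
    rintro rfl
    exact hb ⟨0, by simp⟩
  have hQ0 : (⇑Q) 0 = 0 := map_zero Q
  refine Subgroup.mem_map.mpr ⟨⟨x, hx⟩, ?_, rfl⟩
  refine (mem_commutator_iff_signChar h2 Q hQ hb _).mpr ⟨?_, ?_⟩
  · rw [(level_of_sq_neg_one (⇑Q) h2 hQ0 1 one_ne_zero ⟨x, hx⟩ hxx).2,
      (hcard 1 one_ne_zero).neg_one_pow]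
  · rw [(level_of_sq_neg_one (⇑Q) h2 hQ0 b hb0 ⟨x, hx⟩ hxx).2, (hcard b hb0).neg_one_pow]

end generic

section minus

variable {F : Type u} [Field F]

/-- The sign attached to the reversal pairing of `Fin k`. -/
def eps (k : ℕ) (i : Fin k) : F := if (i : ℕ) < ((Fin.rev i : Fin k) : ℕ) then 1 else -1

theorem eps_mul_self (k : ℕ) (i : Fin k) : (eps k i : F) * eps k i = 1 := by
  unfold eps
  split_ifs <;> simp

theorem eps_rev (k : ℕ) (hk : Even k) (i : Fin k) : (eps k i : F) * eps k (Fin.rev i) = -1 := by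
  unfold eps
  rw [Fin.rev_rev]
  have h1 : ((Fin.rev i : Fin k) : ℕ) = k - (i + 1) := Fin.val_rev i
  have h2 := i.2
  obtain ⟨j, hj⟩ := hk
  by_cases h : (i : ℕ) < ((Fin.rev i : Fin k) : ℕ)
  · rw [if_pos h, if_neg (by omega)]
    simp
  · rw [if_neg h, if_pos (by omega)]
    simp

/-- The explicit linear map with square `-1`. -/
noncomputable def sqMap (k : ℕ) (a b δ : F) : (MI k → F) →ₗ[F] (MI k → F) where
  toFun v := Sum.elim (Sum.elim (fun i => eps k i * v (.inl (.inl (Fin.rev i))))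
      (fun i => eps k i * v (.inl (.inr (Fin.rev i)))))
    ![δ⁻¹ * (-(a * v (.inr 0) + 2 * b * v (.inr 1))), δ⁻¹ * (2 * v (.inr 0) + a * v (.inr 1))]
  map_add' u v := by
    funext j
    rcases j with (i | i) | j
    · simp [mul_add]
    · simp [mul_add]
    · fin_cases j
      · simp
        ring
      · simp
        ring
  map_smul' c v := by
    funext j
    rcases j with (i | i) | j
    · simp
      ring
    · simp
      ring
    · fin_cases j
      · simp
        ring
      · simp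
        ring

theorem sqMap_inl_inl (k : ℕ) (a b δ : F) (v : MI k → F) (i : Fin k) :
    sqMap k a b δ v (.inl (.inl i)) = eps k i * v (.inl (.inl (Fin.rev i))) := rfl

theorem sqMap_inl_inr (k : ℕ) (a b δ : F) (v : MI k → F) (i : Fin k) :
    sqMap k a b δ v (.inl (.inr i)) = eps k i * v (.inl (.inr (Fin.rev i))) := rfl

theorem sqMap_inr_zero (k : ℕ) (a b δ : F) (v : MI k → F) :
    sqMap k a b δ v (.inr 0) = δ⁻¹ * (-(a * v (.inr 0) + 2 * b * v (.inr 1))) := rfl

theorem sqMap_inr_one (k : ℕ) (a b δ : F) (v : MI k → F) :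
    sqMap k a b δ v (.inr 1) = δ⁻¹ * (2 * v (.inr 0) + a * v (.inr 1)) := rfl

theorem sqMap_quad (k : ℕ) (a b δ : F) (hδ : δ * δ = 4 * b - a ^ 2) (hδ0 : δ ≠ 0)
    (v : MI k → F) :
    Cfsg.quadFormMinus k F a b (sqMap k a b δ v) = Cfsg.quadFormMinus k F a b v := by
  have h : δ⁻¹ * δ⁻¹ * (4 * b - a ^ 2) = 1 := by
    rw [← hδ]
    field_simp
  unfold Cfsg.quadFormMinus
  have hsum : ∑ i : Fin k, sqMap k a b δ v (.inl (.inl i)) * sqMap k a b δ v (.inl (.inr i))
      = ∑ i : Fin k, v (.inl (.inl i)) * v (.inl (.inr i)) := by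
    simp only [sqMap_inl_inl, sqMap_inl_inr]
    rw [← Equiv.sum_comp Fin.revPerm (fun i => v (.inl (.inl i)) * v (.inl (.inr i)))]
    refine Finset.sum_congr rfl fun i _ => ?_
    simp only [Fin.revPerm_apply]
    linear_combination
      (v (.inl (.inl (Fin.rev i))) * v (.inl (.inr (Fin.rev i)))) * eps_mul_self (F := F) k i
  rw [hsum, sqMap_inr_zero, sqMap_inr_one]
  linear_combination (v (.inr 0) ^ 2 + a * v (.inr 0) * v (.inr 1) + b * v (.inr 1) ^ 2) * h

theorem sqMap_sq (k : ℕ) (hk : Even k) (a b δ : F) (hδ : δ * δ = 4 * b - a ^ 2) (hδ0 : δ ≠ 0)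
    (v : MI k → F) : sqMap k a b δ (sqMap k a b δ v) = -v := by
  have h : δ⁻¹ * δ⁻¹ * (4 * b - a ^ 2) = 1 := by
    rw [← hδ]
    field_simp
  funext j
  rcases j with (i | i) | j
  · rw [sqMap_inl_inl, sqMap_inl_inl, Fin.rev_rev, Pi.neg_apply]
    linear_combination (v (.inl (.inl i))) * eps_rev (F := F) k hk i
  · rw [sqMap_inl_inr, sqMap_inl_inr, Fin.rev_rev, Pi.neg_apply]
    linear_combination (v (.inl (.inr i))) * eps_rev (F := F) k hk i
  · fin_cases j
    · show sqMap k a b δ (sqMap k a b δ v) (.inr 0) = -v (.inr 0)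
      rw [sqMap_inr_zero, sqMap_inr_zero, sqMap_inr_one]
      linear_combination (-v (.inr 0)) * h
    · show sqMap k a b δ (sqMap k a b δ v) (.inr 1) = -v (.inr 1)
      rw [sqMap_inr_one, sqMap_inr_zero, sqMap_inr_one]
      linear_combination (-v (.inr 1)) * h

variable [Fintype F]

/-- All nonzero level sets of the minus form have the same size. -/
theorem card_level_minus (h2 : (2 : F) ≠ 0) (m : ℕ) (a b : F)
    (hab : ∀ x y : F, x ^ 2 + a * x * y + b * y ^ 2 = 0 → x = 0 ∧ y = 0) (c : F) (hc : c ≠ 0) :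
    Nat.card {v : (Fin m ⊕ Fin m) ⊕ Fin 2 → F // Cfsg.quadFormMinus m F a b v = c} =
      Fintype.card F ^ m * (Fintype.card F ^ (m + 1) + 1) := by
  obtain ⟨s, t, hst⟩ := binary_univ h2 a b hab c
  have h := lev_minus_scale m a b s t (by rw [hst]; exact hc)
  rw [hst] at h
  rw [h, card_level_one_minus h2 m a b hab]

/-- Package [OM1M]. -/
theorem pkgOm1M : PkgOm1M.{u} := by
  intro F _ _ hq k hk a b hab
  have hqodd : Odd (Fintype.card F) := Nat.odd_iff.mpr (by omega)
  have h2 : (2 : F) ≠ 0 := Cfsg.Agent.Lib.Helper73.PG.two_ne_zero_of_odd F hqodd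
  have hm1 : ¬ IsSquare (-1 : F) := by
    rw [FiniteField.isSquare_neg_one_iff]
    omega
  have hD : ¬ IsSquare (a ^ 2 - 4 * b) := minus_disc_not_isSquare F h2 a b hab
  obtain ⟨δ, hδ⟩ : IsSquare ((-1 : F) * (a ^ 2 - 4 * b)) := isSquare_mul_of_not_isSquare hm1 hD
  have hδ' : δ * δ = 4 * b - a ^ 2 := by
    rw [← hδ]
    ring
  have hδ0 : δ ≠ 0 := by
    rintro rfl
    exact minus_disc_ne_zero F h2 a b hab (by rw [← hδ']; ring)
  have hLL : LinearMap.toMatrix' (sqMap k a b δ) * LinearMap.toMatrix' (sqMap k a b δ) = -1 := by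
    rw [← LinearMap.toMatrix'_mul]
    have h1 : sqMap k a b δ * sqMap k a b δ = -1 := by
      apply LinearMap.ext
      intro v
      show sqMap k a b δ (sqMap k a b δ v) = -v
      exact sqMap_sq k hk a b δ hδ' hδ0 v
    rw [h1, map_neg, LinearMap.toMatrix'_one]
  let x : Matrix.GeneralLinearGroup (MI k) F :=
    ⟨LinearMap.toMatrix' (sqMap k a b δ), -LinearMap.toMatrix' (sqMap k a b δ),
      by rw [mul_neg, hLL, neg_neg], by rw [neg_mul, hLL, neg_neg]⟩
  have hxiso : x ∈ Cfsg.isometryGroup F (Cfsg.quadFormMinus k F a b) := by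
    rw [mem_isometryGroup_iff]
    intro v
    show Cfsg.quadFormMinus k F a b (LinearMap.toMatrix' (sqMap k a b δ) *ᵥ v) = _
    rw [← Matrix.toLin'_apply, Matrix.toLin'_toMatrix']
    exact sqMap_quad k a b δ hδ' hδ0 v
  refine ⟨x, ?_, hLL⟩
  have hcoe := minusQF_coe k F a b
  have hsq : Fintype.card F ^ k % 8 = 1 := by
    obtain ⟨j, hj⟩ := hk
    rw [hj, ← two_mul, pow_mul, Nat.pow_mod]
    have h3 : Fintype.card F ^ 2 % 8 = 1 := by
      rw [Nat.pow_mod, hq]
    rw [h3, Nat.one_pow]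
  have hodd' : Fintype.card F ^ (k + 1) % 8 = 7 := by
    rw [pow_succ, Nat.mul_mod, hsq, hq]
  have hL : Fintype.card F ^ k * (Fintype.card F ^ (k + 1) + 1) % 8 = 0 := by
    rw [Nat.mul_mod, hsq]
    omega
  have key := mem_omega_of_sq_neg_one h2 (minusQF k F a b)
    (minusQF_nondegenerate k F h2 a b hab) x (by rw [hcoe]; exact hxiso) hLL (by
      intro c hc
      have h5 : Nat.card {v : MI k → F // (minusQF k F a b) v = c} =
          Nat.card {v : MI k → F // Cfsg.quadFormMinus k F a b v = c} := by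
        rw [hcoe]
      rw [h5, card_level_minus h2 k a b hab c hc, Nat.even_iff]
      omega)
  rw [hcoe] at key
  exact key

end minus

end Cfsg.Agent.Lib.Helper92.OParM
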