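-- Team project OPARM (S5991), packages [OM2MA] and [OM2MB] (helper92): corollaries of the
-- counting lemmas of Helper92/OPar/Om2Minus.lean.
import Cfsg.Agent.Lib.Helper64.OParM.Defs
import Cfsg.Agent.Lib.Helper92.OPar.Om2Minus

set_option autoImplicit false

namespace Cfsg.Agent.Lib.Helper92.OParM

open Cfsg Cfsg.Agent.Lib.Helper64.OParM Cfsg.Agent.Lib.Helper92.OPar
open Matrix

universe u

/-- Package [OM2MA]. -/
theorem pkgOm2MA : PkgOm2MA.{u} := by
  intro F _ _ hq k a b hab x hx hxx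
  have hiso : ∀ v, Cfsg.quadFormMinus k F a b ((x : Matrix (MI k) (MI k) F) *ᵥ v)
      = Cfsg.quadFormMinus k F a b v := by
    obtain ⟨g, -, rfl⟩ := hx
    exact Cfsg.Agent.Lib.Helper14.isom_preserves g
  by_contra hcon
  have h : Even (k + 1) ∨ Fintype.card F % 4 = 1 := by
    by_contra h'
    push Not at h'
    apply hcon
    refine ⟨?_, ?_⟩
    · have h1 := h'.1
      rw [Nat.not_even_iff_odd] at h1
      obtain ⟨j, hj⟩ := h1
      exact ⟨j, by omega⟩
    · have h1 := Nat.odd_iff.mp hq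
      have h2 := h'.2
      omega
  exact no_isometry_sq_neg_one_minus hq k a b hab h _ hiso hxx

/-- Package [OM2MB]. -/
theorem pkgOm2MB : PkgOm2MB.{u} := by
  intro F _ _ hq k hk a b hab x hx
  obtain ⟨j, hj⟩ := hk
  exact no_omega_sq_neg_one_minus hq k a b hab ⟨j, by omega⟩ x hx

end Cfsg.Agent.Lib.Helper92.OParM
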